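import Cfsg.Prelude.Def_AxialAlgebras

/-! Majorana axes: the products in the algebra generated by two axes (helper16). -/

set_option autoImplicit false

namespace Cfsg.Agent.Maj

variable {V : Type*} [AddCommGroup V] [Module ℝ V] (mul : V →ₗ[ℝ] V →ₗ[ℝ] V) (B : LinearMap.BilinForm ℝ V)

structure Amb : Prop where
  comm : ∀ u v, mul u v = mul v u
  symm : ∀ u v, B u v = B v u
  assoc : ∀ u v w, B u (mul v w) = B (mul u v) w

structure Ax (a : V) : Prop where
  idem : mul a a = a
  norm : B a a = 1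
  f00 : ∀ u v, mul a u = 0 → mul a v = 0 → mul a (mul u v) = 0
  f04 : ∀ u v, mul a u = 0 → mul a v = (1 / 4 : ℝ) • v → mul a (mul u v) = (1 / 4 : ℝ) • mul u v
  f44 : ∀ u v, mul a u = (1 / 4 : ℝ) • u → mul a v = (1 / 4 : ℝ) • v → mul a (mul u v) = B a (mul u v) • a

/-- `v'` is the image of `v` under the involution of the axis `a`. -/
structure Ref (a v v' : V) : Prop where
  odd : mul a (v - v') = (1 / 32 : ℝ) • (v - v')
  even : mul a (mul a (v + v')) = (1 / 4 : ℝ) • mul a (v + v') + (3 / 4 * B a (v + v')) • a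

variable {mul B}

theorem Ref.symm {a v v' : V} (h : Ref mul B a v v') : Ref mul B a v' v :=
  ⟨by rw [← neg_sub, map_neg, h.odd, smul_neg], by rw [add_comm v' v]; exact h.even⟩

theorem Ax.orth (A : Amb mul B) {a w : V} (x : Ax mul B a) {c : ℝ} (hc : c ≠ 1) (h : mul a w = c • w) : B a w = 0 := by
  have := A.assoc a a w
  rw [x.idem, h, map_smul, smul_eq_mul] at this
  have h2 : (c - 1) * B a w = 0 := by linear_combination this
  exact (mul_eq_zero.1 h2).resolve_left (sub_ne_zero.2 hc)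

theorem Ref.ip (A : Amb mul B) {a v v' : V} (x : Ax mul B a) (h : Ref mul B a v v') : B a v' = B a v := by
  have := x.orth A (by norm_num) h.odd
  rw [map_sub] at this; linarith

theorem Ref.uniq (A : Amb mul B) {a v w w' : V} (x : Ax mul B a) (h : Ref mul B a v w) (h' : Ref mul B a v w') :
    w = w' := by
  have e1 := h.odd
  have e2 := h'.odd
  have e3 := h.even
  have e4 := h'.even
  have e5 := congrArg (mul a) e1
  have e6 := congrArg (mul a) e2
  simp only [map_add, map_sub, map_smul, h.ip A x, h'.ip A x] at e1 e2 e3 e4 e5 e6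
  linear_combination (norm := module) (1024 / 7 : ℝ) • (e4 - e3 + e6 - e5) + (32 : ℝ) • (e1 - e2)

theorem Ref.prod {a v v' s : V} (h : Ref mul B a v v') (hs : mul a v = s + (1 / 32 : ℝ) • (a + v)) :
    mul a v' = s + (1 / 32 : ℝ) • (a + v') := by
  have := h.odd
  rw [map_sub, hs] at this
  linear_combination (norm := module) -this

theorem Ref.sig (A : Amb mul B) {a v v' s : V} {l : ℝ} (x : Ax mul B a) (h : Ref mul B a v v')
    (hs : mul a v = s + (1 / 32 : ℝ) • (a + v)) (hl : B a v = l) :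
    mul a s = (7 / 32 : ℝ) • s + (3 / 4 * l - 25 / 1024) • a + (7 / 2048 : ℝ) • (v + v') := by
  have e := h.even
  simp only [map_add, map_smul, hs, h.prod hs, x.idem, h.ip A x, hl] at e
  linear_combination (norm := module) (1 / 2 : ℝ) • e

theorem Ax.ip_sig (A : Amb mul B) {a v s : V} {l : ℝ} (x : Ax mul B a)
    (hs : mul a v = s + (1 / 32 : ℝ) • (a + v)) (hl : B a v = l) : B a s = l - (1 + l) / 32 := by
  have e := A.assoc a a v
  simp only [map_add, map_smul, hs, x.idem, x.norm, hl, smul_eq_mul] at e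
  linarith

theorem center (A : Amb mul B) {a p n p2 n2 s t u : V} {l m : ℝ} (x0 : Ax mul B a) (xp : Ax mul B p)
    (xn : Ax mul B n) (r1 : Ref mul B a p n) (r2 : Ref mul B a p2 n2) (rp : Ref mul B p a p2) (rn : Ref mul B n a n2)
    (hs : mul a p = s + (1 / 32 : ℝ) • (a + p)) (ht : mul p n = t + (1 / 32 : ℝ) • (p + n))
    (hu : mul a p2 = u + (1 / 32 : ℝ) • (a + p2)) (hl : B a p = l) (hm : B a p2 = m) :
    B p n = m ∧ mul a t = (1 / 6 * l - 19 / 3072) • (p + n) + (7 / 6144 : ℝ) • (p2 + n2) +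
      (-32 / 3 * l ^ 2 + 5 / 3 * l - 1 / 24 * m - 127 / 3072) • a + (32 / 3 * l - 19 / 48) • s + (7 / 96 : ℝ) • u ∧
    mul s s = (49 / 768 * l - 245 / 196608) • (p + n) + (49 / 196608 : ℝ) • (p2 + n2) +
      (7 / 6 * l ^ 2 - 7 / 384 * l + 7 / 1536 * m - 7 / 98304) • a + (-5 / 12 * l - 13 / 1536) • s -
      (7 / 1536 : ℝ) • u + (7 / 2048 : ℝ) • t := by
  have an := r1.prod hs
  have an2 := r2.prod hu
  have pa : mul p a = s + (1 / 32 : ℝ) • (p + a) := by rw [A.comm, hs, add_comm a]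
  have na : mul n a = s + (1 / 32 : ℝ) • (n + a) := by rw [A.comm, an, add_comm a]
  have np : mul n p = t + (1 / 32 : ℝ) • (p + n) := by rw [A.comm, ht]
  have Ban : B a n = l := (r1.ip A x0).trans hl
  have Bpa : B p a = l := (A.symm _ _).trans hl
  have Bna : B n a = l := (A.symm _ _).trans Ban
  have as := r1.sig A x0 hs hl
  have ps := rp.sig A xp pa Bpa
  have ns := rn.sig A xn na Bna
  have au := r2.sig A x0 hu hm
  have sa := (A.comm s a).trans as
  have sp := (A.comm s p).trans ps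
  have sn := (A.comm s n).trans ns
  have Bas := x0.ip_sig A hs hl
  have Bps := xp.ip_sig A pa Bpa
  have Bns := xn.ip_sig A na Bna
  have Bsa := (A.symm s a).trans Bas
  have Bsp := (A.symm s p).trans Bps
  have Bsn := (A.symm s n).trans Bns
  have e1 := A.assoc s a p
  have e2 := A.assoc s p a
  simp only [map_add, map_smul, LinearMap.add_apply, LinearMap.smul_apply, hs, pa, sa, sp, Bsa, Bsp, hl, Bpa,
    xp.norm, x0.norm, A.symm p2 a, hm, A.symm n p, smul_eq_mul] at e1 e2
  have Bpn : B p n = m := by linarith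
  have Bnp : B n p = m := (A.symm _ _).trans Bpn
  have Bss : B s s = 7 / 32 * (l - (1 + l) / 32) + (3 / 4 * l - 25 / 1024) * l + 7 / 2048 * (1 + m) -
      (l - (1 + l) / 32) / 16 := by linarith
  set α : V := (-4 : ℝ) • s + (3 * l - 1 / 8) • a + (7 / 16 : ℝ) • (p + n) with hα
  set β : V := (4 : ℝ) • s + (1 / 8 - 4 * l) • a + (1 / 16 : ℝ) • (p + n) with hβ
  have aα : mul a α = 0 := by
    simp only [hα, map_add, map_smul, as, hs, an, x0.idem]; module
  have aβ : mul a β = (1 / 4 : ℝ) • β := by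
    simp only [hβ, map_add, map_smul, as, hs, an, x0.idem]; module
  have h1 := x0.f00 α α aα aα
  have h2 := x0.f44 β β aβ aβ
  have h3 := x0.f04 α β aα aβ
  rw [A.assoc, aβ] at h2
  simp only [hα, hβ, map_add, map_smul, LinearMap.add_apply, LinearMap.smul_apply, as, ps, ns, sa, sp, sn, hs, an, pa,
    na, ht, np, hu, an2, x0.idem, xp.idem, xn.idem, Bss, Bas, Bsa, Bps, Bsp, Bns, Bsn, hl, Ban, Bpa, Bna, Bpn, Bnp,
    x0.norm, xp.norm, xn.norm, smul_eq_mul] at h1 h2 h3
  have at' : mul a t = (1 / 6 * l - 19 / 3072) • (p + n) + (7 / 6144 : ℝ) • (p2 + n2) +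
      (-32 / 3 * l ^ 2 + 5 / 3 * l - 1 / 24 * m - 127 / 3072) • a + (32 / 3 * l - 19 / 48) • s + (7 / 96 : ℝ) • u := by
    linear_combination (norm := module) (8 / 3 : ℝ) • (h1 - h2)
  refine ⟨Bpn, at', ?_⟩
  rw [at'] at h1 h3
  linear_combination (norm := module) (1 / 4 : ℝ) • (h1 + h3)

end Cfsg.Agent.Maj
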