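import Cfsg.Agent.Maj.Sak

/-! Majorana pairs: bridge to the definitions and Sakuma's bound (helper16). -/

set_option autoImplicit false

namespace Cfsg.Agent.Maj

open Cfsg.Axial

variable {V : Type*} [AddCommGroup V] [Module ℝ V] {mul : V →ₗ[ℝ] V →ₗ[ℝ] V} {B : LinearMap.BilinForm ℝ V}

variable (mul B) in
structure Pr (τ : V ≃ₗ[ℝ] V) (a : V) : Prop where
  ax : Ax mul B a
  ref : ∀ v, Ref mul B a v (τ v)
  hm : ∀ u v, τ (mul u v) = mul (τ u) (τ v)
  hb : ∀ u v, B (τ u) (τ v) = B u v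

theorem amb (h : IsMajoranaAmbient mul B) : Amb mul B := ⟨h.1, h.2.1, h.2.2.2.1⟩

theorem eigenSum_ind {a : V} {S : Set ℝ} (P : V → Prop) (h0 : P 0) (ha : ∀ u v, P u → P v → P (u + v))
    (h : ∀ c ∈ S, ∀ v, mul a v = c • v → P v) : ∀ v ∈ eigenSum mul a S, P v := fun v hv => by
  rw [eigenSum, ← iSup_subtype''] at hv
  exact Submodule.iSup_induction _ (motive := P) hv (fun c w hw => h c.1 c.2 w (Module.End.mem_eigenspace_iff.1 hw)) h0 ha

theorem mem_eigenSum {a v : V} {S : Set ℝ} {c : ℝ} (hc : c ∈ S) (h : mul a v = c • v) : v ∈ eigenSum mul a S :=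
  (le_iSup₂_of_le (f := fun c (_ : c ∈ S) => eigen mul a c) c hc le_rfl) (Module.End.mem_eigenspace_iff.2 h)

theorem pr_of (A : Amb mul B) {μ : V ≃ₗ[ℝ] V} {a : V} (h : IsMajoranaPair mul B μ a) (hn : B a a = 1) :
    Pr mul B μ a := by
  obtain ⟨hm, hb, ⟨⟨-, hi, ht, hf⟩, h1⟩, hp, hq⟩ := h
  have one : ∀ v, mul a v = (1 : ℝ) • v → ∃ k : ℝ, k • a = v := fun v hv =>
    Submodule.mem_span_singleton.1 (h1 ▸ Module.End.mem_eigenspace_iff.2 hv)
  have fus : ∀ c d : ℝ, c ∈ majoranaSpectrum → d ∈ majoranaSpectrum → ∀ u v, mul a u = c • u → mul a v = d • v →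
      mul u v ∈ eigenSum mul a (monsterLaw (1 / 4) (1 / 32) c d) := fun c d hc hd u v hu hv =>
    hf c hc d hd u (Module.End.mem_eigenspace_iff.2 hu) v (Module.End.mem_eigenspace_iff.2 hv)
  have x : Ax mul B a := by
    refine ⟨hi, hn, fun u v hu hv => ?_, fun u v hu hv => ?_, fun u v hu hv => ?_⟩
    · refine eigenSum_ind (fun w => mul a w = 0) (map_zero _) (fun u v hu hv => by rw [map_add, hu, hv, add_zero])
        (fun c hc w hw => ?_) _ (fus 0 0 (by simp [majoranaSpectrum]) (by simp [majoranaSpectrum]) u v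
          (by rw [hu, zero_smul]) (by rw [hv, zero_smul]))
      norm_num [monsterLaw] at hc; rw [hw, hc, zero_smul]
    · refine eigenSum_ind (fun w => mul a w = (1 / 4 : ℝ) • w) (by simp)
        (fun u v hu hv => by rw [map_add, hu, hv, smul_add]) (fun c hc w hw => ?_) _
        (fus 0 (1 / 4) (by simp [majoranaSpectrum]) (by simp [majoranaSpectrum]) u v (by rw [hu, zero_smul]) hv)
      norm_num [monsterLaw] at hc; rw [hw, hc]
    · refine eigenSum_ind (fun w => mul a w = B a w • a) (by simp)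
        (fun u v hu hv => by rw [map_add, hu, hv, map_add, add_smul]) (fun c hc w hw => ?_) _
        (fus (1 / 4) (1 / 4) (by simp [majoranaSpectrum]) (by simp [majoranaSpectrum]) u v hu hv)
      norm_num [monsterLaw] at hc
      rcases hc with rfl | rfl
      · obtain ⟨k, rfl⟩ := one w hw
        simp [hi, hn]
      · have := A.assoc a a w
        rw [hi, hw, zero_smul, map_zero] at this
        rw [hw, ← this, zero_smul, zero_smul]
  refine ⟨x, fun v => eigenSum_ind (fun v => Ref mul B a v (μ v)) ⟨by simp, by simp⟩ (fun u v hu hv => ⟨?_, ?_⟩)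
    (fun c hc w hw => ?_) v (ht ▸ Submodule.mem_top), hm, hb⟩
  · have e1 := hu.odd
    have e2 := hv.odd
    simp only [map_add, map_sub] at e1 e2 ⊢
    linear_combination (norm := module) e1 + e2
  · have e1 := hu.even
    have e2 := hv.even
    simp only [map_add] at e1 e2 ⊢
    linear_combination (norm := module) e1 + e2
  · have fx : c ∈ ({1, 0, 1 / 4} : Set ℝ) → μ w = w := fun hc => hp w (mem_eigenSum hc hw)
    rcases hc with rfl | rfl | rfl | rfl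
    · rw [fx (by simp)]
      obtain ⟨k, rfl⟩ := one w hw
      exact ⟨by simp, by simp only [map_add, map_smul, hi, hn, smul_eq_mul]; module⟩
    · rw [fx (by simp)]
      exact ⟨by simp, by simp only [map_add, map_smul, hw, x.orth A zero_ne_one hw]; module⟩
    · rw [fx (by simp)]
      exact ⟨by simp, by simp only [map_add, map_smul, hw, x.orth A (by norm_num) hw]; module⟩
    · rw [show μ w = -w from hq w (Module.End.mem_eigenspace_iff.2 hw)]
      exact ⟨by simp only [map_sub, map_neg, hw]; module, by simp⟩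

theorem Pr.sq (A : Amb mul B) {τ : V ≃ₗ[ℝ] V} {a : V} (h : Pr mul B τ a) (v : V) : τ (τ v) = v :=
  (h.ref (τ v)).uniq A h.ax (h.ref v).symm

theorem Pr.fix (A : Amb mul B) {τ : V ≃ₗ[ℝ] V} {a : V} (h : Pr mul B τ a) : τ a = a :=
  (h.ref a).uniq A h.ax ⟨by simp, by simp only [map_add, h.ax.idem, h.ax.norm]; module⟩

theorem Pr.uniq (A : Amb mul B) {τ σ : V ≃ₗ[ℝ] V} {a : V} (h : Pr mul B τ a) (k : Pr mul B σ a) : τ = σ :=
  LinearEquiv.ext fun v => (h.ref v).uniq A h.ax (k.ref v)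

theorem Pr.conj (A : Amb mul B) {τ σ : V ≃ₗ[ℝ] V} {a b : V} (h : Pr mul B τ a) (k : Pr mul B σ b) :
    Pr mul B (σ * τ * σ) (σ a) := by
  have sj : ∀ v, ∃ w, σ w = v := fun v => ⟨σ v, k.sq A v⟩
  refine ⟨⟨by rw [← k.hm, h.ax.idem], by rw [k.hb, h.ax.norm], fun u v hu hv => ?_, fun u v hu hv => ?_,
    fun u v hu hv => ?_⟩, fun v => ?_, fun u v => by simp only [LinearEquiv.mul_apply, h.hm, k.hm],
    fun u v => by simp only [LinearEquiv.mul_apply, h.hb, k.hb]⟩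
  · obtain ⟨u, rfl⟩ := sj u
    obtain ⟨v, rfl⟩ := sj v
    rw [← k.hm, σ.map_eq_zero_iff] at hu hv
    rw [← k.hm, ← k.hm, h.ax.f00 u v hu hv, map_zero]
  · obtain ⟨u, rfl⟩ := sj u
    obtain ⟨v, rfl⟩ := sj v
    rw [← k.hm, σ.map_eq_zero_iff] at hu
    rw [← k.hm, ← map_smul, σ.injective.eq_iff] at hv
    rw [← k.hm, ← k.hm, h.ax.f04 u v hu hv, map_smul]
  · obtain ⟨u, rfl⟩ := sj u
    obtain ⟨v, rfl⟩ := sj v
    rw [← k.hm, ← map_smul, σ.injective.eq_iff] at hu hv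
    rw [← k.hm, ← k.hm, h.ax.f44 u v hu hv, map_smul, k.hb]
  · obtain ⟨v, rfl⟩ := sj v
    simp only [LinearEquiv.mul_apply, k.sq A]
    exact ⟨by rw [← map_sub, ← k.hm, (h.ref v).odd, map_smul],
      by rw [← map_add, ← k.hm, ← k.hm, (h.ref v).even, map_add, map_smul, map_smul, k.hb]⟩

theorem Pr.ref2 (A : Amb mul B) {τ σ : V ≃ₗ[ℝ] V} {a b c : V} (h : Pr mul B τ a) (k : Pr mul B σ (τ c)) :
    Ref mul B (τ c) c ((σ * τ * σ) (τ c)) := by
  have := k.ref c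
  simp only [LinearEquiv.mul_apply, k.fix A, h.sq A]
  exact this

theorem eq_of_ip (hV : IsMajoranaAmbient mul B) {a b : V} (ha : B a a = 1) (hb : B b b = 1) (h : B a b = 1) : a = b := by
  by_contra hne
  have := hV.2.2.1 (a - b) (sub_ne_zero.2 hne)
  simp only [map_sub, LinearMap.sub_apply, ha, hb, h, hV.2.1 b a] at this
  norm_num at this

theorem step {G : Type*} [Group G] {t r : G} (ht : t * t = 1) (hr : t * r * (t * r) = 1) (n : ℕ) :
    t * r ^ (n + 1) * (t * r ^ n) * (t * r ^ (n + 1)) = t * r ^ (n + 2) := by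
  have h1 : t * r * t⁻¹ = r⁻¹ := by
    rw [inv_eq_of_mul_eq_one_right ht, eq_inv_iff_mul_eq_one, ← hr]; group
  have h2 : ∀ k : ℕ, r ^ k * t = t * (r ^ k)⁻¹ := fun k => by
    rw [← inv_pow, ← h1, conj_pow, ← mul_assoc, ← mul_assoc, ht, one_mul, inv_eq_of_mul_eq_one_right ht]
  calc _ = t * r ^ (n + 1) * (t * (r ^ n * t)) * r ^ (n + 1) := by group
    _ = t * r ^ (n + 1) * (t * t) * (r ^ n)⁻¹ * r ^ (n + 1) := by rw [h2]; group
    _ = _ := by rw [ht]; group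

theorem sakuma (hV : IsMajoranaAmbient mul B) {μ₀ μ₁ : V ≃ₗ[ℝ] V} {a₀ a₁ : V} (p0 : Pr mul B μ₀ a₀)
    (p1 : Pr mul B μ₁ a₁) : ∃ n : ℕ, 1 ≤ n ∧ n ≤ 6 ∧ (μ₀ * μ₁) ^ n = 1 := by
  have A := amb hV
  have s0 : μ₀ * μ₀ = 1 := LinearEquiv.ext (p0.sq A)
  have s1 : μ₁ * μ₁ = 1 := LinearEquiv.ext (p1.sq A)
  obtain ⟨r, rfl⟩ : ∃ r, μ₁ = μ₀ * r ^ (0 + 1) := ⟨μ₀ * μ₁, by rw [zero_add, pow_one, ← mul_assoc, s0, one_mul]⟩
  have st := step (r := r) s0 (by simpa using s1)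
  have p0' : Pr mul B (μ₀ * r ^ 0) a₀ := by simpa using p0
  have p2 := p0'.conj A p1
  have p3 := p1.conj A (st 0 ▸ p2)
  have p4 := (st 0 ▸ p2).conj A (st 1 ▸ p3)
  have p5 := (st 1 ▸ p3).conj A (st 2 ▸ p4)
  have p6 := (st 2 ▸ p4).conj A (st 3 ▸ p5)
  have q0 := p1.ref2 A (b := a₀) (st 0 ▸ p2)
  have q1 := (st 0 ▸ p2).ref2 A (b := a₀) (st 1 ▸ p3)
  have q2 := (st 1 ▸ p3).ref2 A (b := a₀) (st 2 ▸ p4)
  rw [st] at p2 p3 p4 p5 p6 q0 q1 q2
  have fin : ∀ (n : ℕ) (b : V), Pr mul B (μ₀ * r ^ n) b → B a₀ b = 1 → (μ₀ * (μ₀ * r ^ (0 + 1))) ^ n = 1 := fun n b p h => by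
    rw [← mul_assoc, s0, one_mul, zero_add, pow_one]
    exact (mul_eq_left.1 ((eq_of_ip hV p0.ax.norm p.ax.norm h ▸ p).uniq A p0))
  rcases sak A p0.ax p1.ax p2.ax p3.ax p4.ax p5.ax (p1.ref _) (p2.ref _) (p3.ref _) (p4.ref _) (p5.ref _) q0 q1 q2 with
    h | h | h | h | h | h
  exacts [⟨_, by norm_num, by norm_num, fin _ _ p1 h⟩, ⟨_, by norm_num, by norm_num, fin _ _ p2 h⟩,
    ⟨_, by norm_num, by norm_num, fin _ _ p3 h⟩, ⟨_, by norm_num, by norm_num, fin _ _ p4 h⟩,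
    ⟨_, by norm_num, by norm_num, fin _ _ p5 h⟩, ⟨_, by norm_num, by norm_num, fin _ _ p6 h⟩]

end Cfsg.Agent.Maj
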