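import Cfsg.Agent.Maj.Center

/-! Sakuma's theorem: the inner products of two Majorana axes (helper16). -/

set_option autoImplicit false

namespace Cfsg.Agent.Maj

variable {V : Type*} [AddCommGroup V] [Module ℝ V] {mul : V →ₗ[ℝ] V →ₗ[ℝ] V} {B : LinearMap.BilinForm ℝ V}

theorem Ref.orth (A : Amb mul B) {a v v' w w' : V} (x : Ax mul B a) (h : Ref mul B a v v') (k : Ref mul B a w w') :
    B (v - v') (w + w') = 0 := by
  have e := congrArg (B (v - v')) k.even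
  have o : mul (v - v') a = (1 / 32 : ℝ) • (v - v') := (A.comm _ _).trans h.odd
  have z : B (v - v') a = 0 := (A.symm _ _).trans (x.orth A (by norm_num) h.odd)
  rw [map_add (B (v - v')), map_smul, map_smul, z, A.assoc, o, map_smul, LinearMap.smul_apply, A.assoc, o, map_smul,
    LinearMap.smul_apply] at e
  simp only [smul_eq_mul] at e
  linarith

theorem Ref.iso (A : Amb mul B) {a v v' w w' : V} (x : Ax mul B a) (h : Ref mul B a v v') (k : Ref mul B a w w') :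
    B v w = B v' w' := by
  have e1 := h.orth A x k
  have e2 := k.orth A x h
  simp only [map_add, map_sub, LinearMap.sub_apply, A.symm w, A.symm w'] at e1 e2
  linarith

theorem rel (A : Amb mul B) {n2 n1 a0 a1 a2 a3 s t u : V} {l m : ℝ} (xn : Ax mul B n1) (x0 : Ax mul B a0)
    (x1 : Ax mul B a1) (x2 : Ax mul B a2) (rn : Ref mul B n1 n2 a0) (r0 : Ref mul B a0 n1 a1) (r1 : Ref mul B a1 a0 a2)
    (r2 : Ref mul B a2 a1 a3) (q0 : Ref mul B a0 n2 a2) (q1 : Ref mul B a1 n1 a3)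
    (hs : mul a0 a1 = s + (1 / 32 : ℝ) • (a0 + a1)) (ht : mul a1 n1 = t + (1 / 32 : ℝ) • (a1 + n1))
    (hu : mul a0 a2 = u + (1 / 32 : ℝ) • (a0 + a2)) (hl : B a0 a1 = l) (hm : B a0 a2 = m) :
    B a1 n1 = m ∧ mul a1 u = (1 / 6 * l - 19 / 3072) • (a2 + a0) + (7 / 6144 : ℝ) • (a3 + n1) +
      (-32 / 3 * l ^ 2 + 5 / 3 * l - 1 / 24 * m - 127 / 3072) • a1 + (32 / 3 * l - 19 / 48) • s + (7 / 96 : ℝ) • t ∧
    n2 - a3 + (256 * l - 6) • (n1 - a2) + ((32768 * l ^ 2 - 2304 * l + 128 * m + 33) / 7) • (a0 - a1) +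
      (32 : ℝ) • (t - u) = 0 := by
  obtain ⟨e1, -, e2⟩ := center A x0 x1 xn r0.symm q0.symm r1 rn.symm hs ht hu hl hm
  obtain ⟨-, e3, e4⟩ := center A (s := s) (t := u) (l := l) (m := m) x1 x2 x0 r1.symm q1.symm r2 r0.symm
    (r1.prod (by rw [A.comm, hs, add_comm a0])) (by rw [A.comm, hu, add_comm a0]) (q1.prod ht)
    (by rw [r1.ip A x1, A.symm, hl]) (by rw [q1.ip A x1, e1])
  exact ⟨e1, e3, by linear_combination (norm := module) (196608 / 49 : ℝ) • (e4 - e2)⟩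

theorem poly {l m : ℝ}
    (p1 : l ^ 4 - 71 / 64 * l ^ 3 + 5 / 256 * l ^ 2 * m + 45 / 512 * l ^ 2 + 139 / 32768 * l * m + 1 / 16384 * m ^ 2 -
      75 / 32768 * l - 167 / 2097152 * m + 39 / 2097152 = 0)
    (p2 : (-589824 * l ^ 3 - 1354752 * l ^ 2 + 14292 * l + 1755 / 16) * m + (-150994944 * l ^ 5 + 159252480 * l ^ 4 -
      6137856 * l ^ 3 - 200448 * l ^ 2 + 11052 * l - 1755 / 16) = 0) :
    l = 1 ∨ m = 1 ∨ (l = 1 / 64 ∧ m = 1 / 64) ∨ (l = 13 / 256 ∧ m = 13 / 256) ∨ (l = 1 / 32 ∧ m = 0) ∨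
      (l = 1 / 64 ∧ m = 1 / 8) ∨ (l = 3 / 128 ∧ m = 3 / 128) ∨ (l = 5 / 256 ∧ m = 13 / 256) := by
  have hN : (l - 1) * (l * ((l - 1 / 8) * ((l - 1 / 64) * ((l - 1 / 64) * ((l - 13 / 256) * ((l - 1 / 32) *
      ((l - 3 / 128) * (l - 5 / 256)))))))) = 0 := by
    linear_combination (-1 / 4261681299456 * (-589824 * l ^ 3 - 1354752 * l ^ 2 + 14292 * l + 1755 / 16) ^ 2) * p1 +
      (1 / 4261681299456 * (((-589824 * l ^ 3 - 1354752 * l ^ 2 + 14292 * l + 1755 / 16) * m - (-150994944 * l ^ 5 +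
      159252480 * l ^ 4 - 6137856 * l ^ 3 - 200448 * l ^ 2 + 11052 * l - 1755 / 16)) / 16384 +
      (-589824 * l ^ 3 - 1354752 * l ^ 2 + 14292 * l + 1755 / 16) *
      (5 / 256 * l ^ 2 + 139 / 32768 * l - 167 / 2097152))) * p2
  have h64 : l = 1 / 64 → m = 1 / 64 ∨ m = 1 / 8 := fun h => by
    subst h
    have : (m - 1 / 64) * (m - 1 / 8) = 0 := by linear_combination 16384 * p1
    simpa only [mul_eq_zero, sub_eq_zero] using this
  simp only [mul_eq_zero, sub_eq_zero] at hN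
  rcases hN with h | h | h | h | h | h | h | h | h
  · exact .inl h
  · subst h; exact .inr (.inl (by linarith))
  · subst h; exact .inr (.inl (by linarith))
  · rcases h64 h with k | k <;> simp [h, k]
  · rcases h64 h with k | k <;> simp [h, k]
  · subst h; have : m = 13 / 256 := by linarith
    simp [this]
  · subst h; have : m = 0 := by linarith
    simp [this]
  · subst h; have : m = 3 / 128 := by linarith
    simp [this]
  · subst h; have : m = 13 / 256 := by linarith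
    simp [this]

theorem sak (A : Amb mul B) {n2 n1 a0 a1 a2 a3 a4 : V} (xm : Ax mul B n2) (xn : Ax mul B n1) (x0 : Ax mul B a0)
    (x1 : Ax mul B a1) (x2 : Ax mul B a2) (x3 : Ax mul B a3) (rn : Ref mul B n1 n2 a0) (r0 : Ref mul B a0 n1 a1)
    (r1 : Ref mul B a1 a0 a2) (r2 : Ref mul B a2 a1 a3) (r3 : Ref mul B a3 a2 a4) (q0 : Ref mul B a0 n2 a2)
    (q1 : Ref mul B a1 n1 a3) (q2 : Ref mul B a2 a0 a4) :
    B n2 n1 = 1 ∨ B n2 a0 = 1 ∨ B n2 a1 = 1 ∨ B n2 a2 = 1 ∨ B n2 a3 = 1 ∨ B n2 a4 = 1 := by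
  obtain ⟨s, hs⟩ : ∃ s, mul a0 a1 = s + (1 / 32 : ℝ) • (a0 + a1) := ⟨_, (sub_add_cancel _ _).symm⟩
  obtain ⟨t, ht⟩ : ∃ t, mul a1 n1 = t + (1 / 32 : ℝ) • (a1 + n1) := ⟨_, (sub_add_cancel _ _).symm⟩
  obtain ⟨u, hu⟩ : ∃ u, mul a0 a2 = u + (1 / 32 : ℝ) • (a0 + a2) := ⟨_, (sub_add_cancel _ _).symm⟩
  obtain ⟨l, hl⟩ : ∃ l, B a0 a1 = l := ⟨_, rfl⟩
  obtain ⟨m, hm⟩ : ∃ m, B a0 a2 = m := ⟨_, rfl⟩
  have sw : ∀ {x y z : V}, mul x y = z + (1 / 32 : ℝ) • (x + y) → mul y x = z + (1 / 32 : ℝ) • (y + x) :=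
    fun {x y _} h => by rw [A.comm, h, add_comm x y]
  obtain ⟨b1n, a1u, R0⟩ := rel A xn x0 x1 x2 rn r0 r1 r2 q0 q1 hs ht hu hl hm
  have p12 := r1.prod (sw hs)
  have p0n := r0.symm.prod hs
  have pnm := rn.symm.prod (sw p0n)
  have p13 := q1.prod ht
  have p0m := q0.symm.prod hu
  have b10 := (A.symm a1 a0).trans hl
  have b12 := (r1.ip A x1).trans b10
  have b0n := (r0.symm.ip A x0).trans hl
  have bn0 := (A.symm n1 a0).trans b0n
  have bnm := (rn.symm.ip A xn).trans bn0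
  have bmn := (A.symm n2 n1).trans bnm
  have b13 := (q1.ip A x1).trans b1n
  have bn1 := (A.symm n1 a1).trans b1n
  have bm0 := (A.symm n2 a0).trans ((q0.symm.ip A x0).trans hm)
  have b21 := (A.symm a2 a1).trans b12
  have b23 := (r2.ip A x2).trans b21
  have b20 := (A.symm a2 a0).trans hm
  obtain ⟨-, -, R1⟩ := rel A x0 x1 x2 x3 r0 r1 r2 r3 q1 q2 p12 (sw hu) p13 b12 b13
  have a1t := q1.sig A x1 ht b1n
  obtain ⟨L3, bm1⟩ : ∃ c, B n2 a1 = c := ⟨_, rfl⟩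
  have b1m := (A.symm a1 n2).trans bm1
  have b2n : B a2 n1 = L3 := (q0.iso A x0 r0.symm).symm.trans bm1
  have bn2 := (A.symm n1 a2).trans b2n
  have b1s := x1.ip_sig A p12 b12
  have bms := xm.ip_sig A (sw pnm) bmn
  have bns := xn.ip_sig A pnm bnm
  have b2s := x2.ip_sig A (sw p12) b21
  have b1t := x1.ip_sig A ht b1n
  have bnt := xn.ip_sig A (sw ht) bn1
  have bmu := xm.ip_sig A (sw p0m) bm0
  have b2u := x2.ip_sig A (sw hu) b20
  have e1 := A.assoc a1 a0 a2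
  have e2 := A.assoc n2 n1 a1
  have e3 := A.assoc a2 a1 n1
  simp only [map_add, map_smul, LinearMap.add_apply, LinearMap.smul_apply, smul_eq_mul, hu, sw hs, sw ht, sw pnm, ht,
    sw p12, A.symm s, b2s, b1s, bns, b10, b12, hm, bmn, bm1, bn1, b21, b2n, b1n] at e1 e2 e3
  have b1u : B a1 u = l - (1 + l) / 32 + (m - l) / 32 := by linarith
  have bmt : B n2 t = l - (1 + l) / 32 + (m - l) / 32 := by linarith
  have b2t : B a2 t = l - (1 + l) / 32 + (m - l) / 32 := by linarith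
  have bnu : B n1 u = l - (1 + l) / 32 + (m - l) / 32 := by
    have e := A.assoc n1 a0 a2
    simp only [map_add, map_smul, LinearMap.add_apply, LinearMap.smul_apply, smul_eq_mul, hu, sw p0n, A.symm s, b2s,
      bn0, bn2, hm] at e
    linarith
  have f3 := congrArg (B a1) R0
  have f4 := congrArg (B a2) R0
  have f4' := congrArg (B n1) R0
  have f5 := congrArg (B n2) R0
  have f6 := congrArg (B n2) R1
  have g1 := congrArg (fun v => B n1 (mul a1 v)) R0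
  have g2 := congrArg (fun v => B n2 (mul a1 v)) R0
  have k1 : B n1 (mul a1 n2) = B n2 t + (l + L3) / 32 := by
    rw [A.assoc, sw ht, A.symm]; simp only [map_add, map_smul, smul_eq_mul, bmn, bm1]; ring
  have k2 : B n2 (mul a1 n2) = L3 := by rw [A.comm, A.assoc, xm.idem, bm1]
  simp only [map_add, map_sub, map_smul, map_zero, smul_eq_mul, k1, k2, p13, ht, p12, sw hs, x1.idem, a1t, a1u,
    b1m, b13, b1n, b12, b10, x1.norm, b1t, b1u, A.symm a2 n2, b23, b2n, x2.norm, b20, b21, b2t, b2u, bnm, xn.norm,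
    bn2, bn0, bn1, bnt, bnu, xm.norm, bmn, bm0, bm1, bmt, bmu, bns, bms] at f3 f4 f4' f5 f6 g1 g2
  have h3 : L3 = -32768 / 7 * l ^ 3 + 36864 / 7 * l ^ 2 - 1920 / 7 * l * m - 2169 / 7 * l - 33 / 7 * m + 33 / 7 := by
    linear_combination f3
  have h4 : B n2 a2 = 8388608 / 7 * l ^ 4 - 9601024 / 7 * l ^ 3 + 65536 * l ^ 2 * m + 110592 * l ^ 2 - 640 / 7 * l * m -
      128 / 7 * m ^ 2 - 19840 / 7 * l - 3 * m + 156 / 7 := by
    rw [h3] at f4; linear_combination f4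
  have h4' : B n1 a3 = B n2 a2 := by linear_combination -f4' - f4
  obtain ⟨L5, h5⟩ : ∃ c, B n2 a3 = c := ⟨_, rfl⟩
  obtain ⟨L6, h6⟩ : ∃ c, B n2 a4 = c := ⟨_, rfl⟩
  rw [h4'] at g1
  rw [h5] at f5 f6 g2
  rw [h6] at f6
  rw [h4, h3] at f5 f6 g1 g2
  have p1 : l ^ 4 - 71 / 64 * l ^ 3 + 5 / 256 * l ^ 2 * m + 45 / 512 * l ^ 2 + 139 / 32768 * l * m + 1 / 16384 * m ^ 2 -
      75 / 32768 * l - 167 / 2097152 * m + 39 / 2097152 = 0 := by linear_combination 7 / 786432 * g1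
  have p2 : (-589824 * l ^ 3 - 1354752 * l ^ 2 + 14292 * l + 1755 / 16) * m + (-150994944 * l ^ 5 + 159252480 * l ^ 4 -
      6137856 * l ^ 3 - 200448 * l ^ 2 + 11052 * l - 1755 / 16) = 0 := by
    linear_combination -49 / 5 * g2 - 49 / 120 * f5 - (1157627904 / 5 * l + 34209792 / 5) * p1
  rw [bmn, bm0, bm1, h4, h5, h6, h3]
  rcases poly p1 p2 with h | h | ⟨rfl, rfl⟩ | ⟨rfl, rfl⟩ | ⟨rfl, rfl⟩ | ⟨rfl, rfl⟩ | ⟨rfl, rfl⟩ | ⟨rfl, rfl⟩
  · exact .inl h
  · exact .inr (.inl h)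
  · exact .inr (.inr (.inl (by norm_num)))
  · exact .inr (.inr (.inl (by norm_num)))
  · exact .inr (.inr (.inr (.inl (by norm_num))))
  · exact .inr (.inr (.inr (.inl (by norm_num))))
  · exact .inr (.inr (.inr (.inr (.inl (by linarith)))))
  · exact .inr (.inr (.inr (.inr (.inr (by linarith)))))

end Cfsg.Agent.Maj
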