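import Cfsg.Agent.Maj.Pair

/-! Commuting Majorana involutions (helper16). -/

set_option autoImplicit false

namespace Cfsg.Agent.Maj

open Cfsg.Axial

variable {V : Type*} [AddCommGroup V] [Module ℝ V] {mul : V →ₗ[ℝ] V →ₗ[ℝ] V} {B : LinearMap.BilinForm ℝ V}

theorem eigen_map {g : V ≃ₗ[ℝ] V} (hg : ∀ u v, g (mul u v) = mul (g u) (g v)) (a : V) (c : ℝ) :
    eigen mul (g a) c = (eigen mul a c).map (g : V →ₗ[ℝ] V) := by
  ext v
  obtain ⟨v, rfl⟩ := g.surjective v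
  rw [Submodule.mem_map_equiv, g.symm_apply_apply, eigen, eigen, Module.End.mem_eigenspace_iff,
    Module.End.mem_eigenspace_iff, ← hg, ← map_smul, g.injective.eq_iff]

theorem eigenSum_map {g : V ≃ₗ[ℝ] V} (hg : ∀ u v, g (mul u v) = mul (g u) (g v)) (a : V) (S : Set ℝ) :
    eigenSum mul (g a) S = (eigenSum mul a S).map (g : V →ₗ[ℝ] V) := by
  simp only [eigenSum, Submodule.map_iSup, eigen_map hg]

theorem pair_conj {μ g : V ≃ₗ[ℝ] V} {a : V} (h : IsMajoranaPair mul B μ a)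
    (hg : ∀ u v, g (mul u v) = mul (g u) (g v)) (hc : ∀ v, μ (g v) = g (μ v)) : IsMajoranaPair mul B μ (g a) := by
  obtain ⟨hm, hb, ⟨⟨h0, hi, ht, hf⟩, h1⟩, hp, hq⟩ := h
  refine ⟨hm, hb, ⟨⟨by simpa using h0, by rw [← hg, hi], ?_, fun c hc d hd u hu v hv => ?_⟩, ?_⟩, fun v hv => ?_,
    fun v hv => ?_⟩
  · rw [eigenSum_map hg, ht, Submodule.map_top, LinearEquiv.range]
  · rw [eigen_map hg] at hu hv
    obtain ⟨u, hu, rfl⟩ := hu
    obtain ⟨v, hv, rfl⟩ := hv
    rw [eigenSum_map hg]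
    exact ⟨_, hf c hc d hd u hu v hv, hg u v⟩
  · rw [eigen_map hg, h1, Submodule.map_span, Set.image_singleton]; rfl
  · rw [eigenSum_map hg] at hv
    obtain ⟨v, hv, rfl⟩ := hv
    exact (hc v).trans (congrArg g (hp v hv))
  · rw [eigen_map hg] at hv
    obtain ⟨v, hv, rfl⟩ := hv
    exact (hc v).trans ((congrArg g (hq v hv)).trans (map_neg g v))

theorem two (hV : IsMajoranaAmbient mul B) {a b : V} (x : Ax mul B a) (y : Ax mul B b) (r : Ref mul B a b b)
    (q : Ref mul B b a a) (hne : a ≠ b) : (B a b = 0 ∧ mul a b = 0) ∨ (B a b = 1 / 8 ∧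
      mul (a + b - (8 : ℝ) • mul a b) (a + b - (8 : ℝ) • mul a b) = a + b - (8 : ℝ) • mul a b ∧
      mul a (a + b - (8 : ℝ) • mul a b) = (1 / 8 : ℝ) • (a + (a + b - (8 : ℝ) • mul a b) - b) ∧
      mul b (a + b - (8 : ℝ) • mul a b) = (1 / 8 : ℝ) • (b + (a + b - (8 : ℝ) • mul a b) - a)) := by
  have A := amb hV
  obtain ⟨s, hs⟩ : ∃ s, mul a b = s + (1 / 32 : ℝ) • (a + b) := ⟨_, (sub_add_cancel _ _).symm⟩
  obtain ⟨l, hl⟩ : ∃ l, B a b = l := ⟨_, rfl⟩
  have ba : mul b a = s + (1 / 32 : ℝ) • (b + a) := by rw [A.comm, hs, add_comm a]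
  have hl' := (A.symm b a).trans hl
  obtain ⟨-, e1, e2⟩ := center A (t := (15 / 16 : ℝ) • b) (u := (15 / 16 : ℝ) • a) x y y r
    ⟨by simp, by simp only [map_add, x.idem, x.norm]; module⟩ q q hs (by rw [y.idem]; module) (by rw [x.idem]; module)
    hl x.norm
  have as := r.sig A x hs hl
  have bs := q.sig A y ba hl'
  have Bbs := y.ip_sig A ba hl'
  have Bas := x.ip_sig A hs hl
  have e3 := congrArg (B b) e1
  simp only [map_add, map_smul, hs, smul_eq_mul, Bbs, hl', y.norm] at e3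
  have e4 : l * ((l - 1 / 8) * (l - 1)) = 0 := by linear_combination 3 / 32 * e3
  simp only [mul_eq_zero, sub_eq_zero] at e4
  rcases e4 with rfl | rfl | rfl
  · refine .inl ⟨hl, by_contra fun h => ?_⟩
    have := hV.2.2.1 _ h
    rw [A.symm, A.comm a b, ← A.assoc, A.comm b a, hs] at this
    simp only [map_add, map_smul, as, hs, x.idem, smul_eq_mul, Bbs, hl', y.norm] at this
    norm_num at this
  · refine .inr ⟨hl, ?_, ?_, ?_⟩ <;>
      simp only [hs, map_add, map_sub, map_smul, LinearMap.add_apply, LinearMap.sub_apply, LinearMap.smul_apply,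
        A.comm s a, A.comm s b, as, bs, e2, ba, x.idem, y.idem] <;> module
  · exact absurd (eq_of_ip hV x.norm y.norm hl) hne

end Cfsg.Agent.Maj
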